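import Cfsg.Agent.H9.OutJ2
import Cfsg.Agent.L0.Bridge9
import Cfsg.Agent.L0.CenterCover

/-! The double cover of J2 is a stem extension. -/

set_option autoImplicit false
set_option maxRecDepth 100000

namespace Cfsg.Agent.L0.J2Low

open Cfsg.Spor Cfsg.Agent.H9 Quaternion

/-- `y` codes the image of the vector coded by `x` under the reflection coded by `r` -/
def stepB (r x y : ℕ) : Bool :=
  (refl8 (ip2 (dQ r 0) (dQ r 48) (dQ r 96) (dQ x 0) (dQ x 48) (dQ x 96)) (dQ r 0) (dQ x 0)).beq
      ((dQ y 0).sc 8) &&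
    (refl8 (ip2 (dQ r 0) (dQ r 48) (dQ r 96) (dQ x 0) (dQ x 48) (dQ x 96)) (dQ r 48) (dQ x 48)).beq
      ((dQ y 48).sc 8) &&
    (refl8 (ip2 (dQ r 0) (dQ r 48) (dQ r 96) (dQ x 0) (dQ x 48) (dQ x 96)) (dQ r 96) (dQ x 96)).beq
      ((dQ y 96).sc 8)

theorem stepB_spec {r x y : ℕ} (h : stepB r x y = true) : qrefl (vecOf r) (vecOf x) = vecOf y := by
  simp only [stepB, Bool.and_eq_true, Q8.beq_iff] at h
  have := refl8_spec (dQ r 0) (dQ r 48) (dQ r 96) (dQ x 0) (dQ x 48) (dQ x 96)
  rw [h.1.1, h.1.2, h.2] at this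
  funext t
  apply mul_left_cancel₀ (show (8 : ℍ[ℝ]) ≠ 0 by norm_num)
  have e := congrFun this t
  rw [Pi.smul_apply, smul_eq_mul] at e
  rw [vecOf, vecOf, vecOf, ← e]
  fin_cases t <;> simp [semV, Q8.sem_sc]

/-- the last code -/
def hd (x : ℕ) : List (ℕ × ℕ) → ℕ
  | [] => x
  | p :: _ => p.2

/-- the codes follow the reflections -/
noncomputable def chkV (x : ℕ) : List (ℕ × ℕ) → Bool :=
  List.rec true fun p l ih => Nat.blt p.1 315 && stepB (OutJ2.RC p.1) (hd x l) p.2 && ih

theorem chkV_spec {v : ℕ → twoJ2}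
    (hv : ∀ c < 315, ∃ h : IsMin4 (vecOf (OutJ2.RC c)), v c = reflP h) {x : ℕ} (X : icoLeech)
    (hX : X.1 = vecOf x) (l : List (ℕ × ℕ)) (h : chkV x l = true) :
    (((ev v (l.map Prod.fst)).1 X : icoLeech) : Fin 3 → ℍ[ℝ]) = vecOf (hd x l) := by
  induction l with
  | nil => exact hX
  | cons p l ih =>
    have h' : (Nat.blt p.1 315 && stepB (OutJ2.RC p.1) (hd x l) p.2 && chkV x l) = true := h
    simp only [Bool.and_eq_true, Nat.blt_eq] at h'
    obtain ⟨h1, h2⟩ := hv _ h'.1.1
    rw [List.map_cons, ev_cons, h2]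
    change (((reflP h1).1 ((ev v (l.map Prod.fst)).1 X) : icoLeech) : Fin 3 → ℍ[ℝ]) = vecOf p.2
    rw [reflP_apply, ih h'.2, stepB_spec h'.1.2]

def L : List (ℕ × ℕ) := [(0, 11332975970674288601062419874515250959222816), (1, 11321749310372693637957992338968798824630304), (2, 11327363990201227605602870467883774150834272), (3, 11670367266060349139126338636154509210028127), (0, 11675813112834482157636684506535259468077088), (1, 11675642972290077285477761204621764781537248), (2, 11670284854244138911040302883925194069379041), (3, 11675728043211317447697664536287116095784993), (0, 11327363949301747402210987693974982462933023), (1, 11332805829480686927038307085528388132276254), (2, 11332892208541447183330392319574971865237599), (3, 11332893558209041246321441110600340635781152), (0, 11327447710785710188289134651188742317537249), (1, 11327446402656333774889412421255605759903649), (2, 11332892207892250401379275904924912001087520), (3, 11327446361118117402216464325629252877817952), (0, 10978913476351700805678437706006949100132385),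 (1, 11327278919928863676527873974753616871168032), (2, 10978913475702666154903570922647010123577377), (3, 11327446361117958906610936660562664721877089), (0, 10978997237835666028970071740345662989805665), (1, 11327363990840281984385479083398656472254497), (2, 11327277569602252194946926267052764688160801), (3, 11327278878390491245453150022572336146937950)]

def R : List (List ℕ) := [[0, 1, 3, 2, 1, 2, 3, 0, 1, 3, 2, 1, 2, 3, 0, 1, 3, 2, 1, 2, 3],
  [0, 1, 2, 3, 2, 0, 3, 0, 1, 2, 3, 2, 0, 3, 0, 1, 2, 3, 2, 0, 3],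
  [0, 1, 2, 3, 1, 0, 3, 0, 1, 2, 3, 1, 0, 3, 0, 1, 2, 3, 1, 0, 3],
  [0, 1, 3, 1, 2, 0, 2, 0, 1, 3, 1, 2, 0, 2, 0, 1, 3, 1, 2, 0, 2]]

theorem lower (hU : UpperMult J2 (Multiplicative (ZMod 2))) :
    LowerMult J2 (Multiplicative (ZMod 2)) := by
  obtain ⟨A, v, g, h0, h, hv, hg, -⟩ := OutJ2.exists_ok
  have hb := ofRA_base h.base
  have ht := ofRA_tab h.tab
  have hx : ∀ i < 4, v i * v i = 1 := fun i hi => by
    obtain ⟨h1, h2⟩ := hv i (by omega)
    rw [h2, reflP_mul_self]
  have hw : ∀ w : List ℕ, L0.lettersB 4 [w] = true → RAct.fixB OutJ2.T [w] OutJ2.B = true →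
      ev (fun s => (QuotientGroup.mk (v s) : J2)) w = 1 := fun w h1 h2 => by
    have ht' : (ofRA A).Tab (fun s => (QuotientGroup.mk (v s) : J2)) 4 OutJ2.T :=
      fun i hi c hc => by rw [← ht i (by omega) c hc, h0 i hi]
    exact hb.ev_eq_one ht' h1 h2 w (by simp)
  refine lower_of_center Nat.prime_two (perfect_of_words (k := 4)
    (x := fun s => (QuotientGroup.mk (v s) : J2))
    (fun i hi => by rw [← QuotientGroup.mk_mul, hx i hi, QuotientGroup.mk_one])
    (H9.gen_map hg (QuotientGroup.mk' _) (QuotientGroup.mk'_surjective _)) (R := R) ?_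
    (by decide +kernel)) hU (z := ev v (L.map Prod.fst)) ?_
    (ev_mem_commutator hx (by decide +kernel)) fun e => ?_
  · intro r hr
    simp only [R, List.mem_cons, List.not_mem_nil, or_false] at hr
    rcases hr with rfl | rfl | rfl | rfl <;> exact hw _ (by decide +kernel) (by decide +kernel)
  · rw [← hw (L.map Prod.fst) (by decide +kernel) (by decide +kernel)]
    exact map_ev v (QuotientGroup.mk' _) _
  · obtain ⟨h1, -⟩ := hv 0 (by norm_num)
    have := chkV_spec hv ⟨_, h1.1⟩ rfl L (by decide +kernel)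
    rw [e] at this
    have h2 := Q8.sem_inj (congrFun this 2)
    exact absurd (Q8.beq_iff.mpr h2) (by decide +kernel)

end Cfsg.Agent.L0.J2Low
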