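import Cfsg.Agent.H9.OutJ3
import Cfsg.Agent.L0.CenterCover

/-! The triple cover of J3 is a stem extension. -/

set_option autoImplicit false
set_option maxRecDepth 100000

namespace Cfsg.Agent.L0.J3Low

open Cfsg.Spor Cfsg.Agent.H9

def Z : List ℕ := [0, 1, 0, 1, 0, 1, 2, 0, 1, 0, 1, 0, 1, 2, 0, 1, 0, 1, 0, 1, 2, 0, 1, 0, 1, 0, 1, 2, 0, 1, 0, 1, 0, 1, 2, 0, 1, 0, 1, 0, 1, 2, 0, 1, 0, 1, 0, 1, 2, 0, 1, 0, 1, 0, 1, 2]

def R : List (List ℕ) := [[0, 1, 0, 1, 0, 1, 2, 1, 2, 0, 1, 0, 1, 0, 1, 2, 1, 2, 0, 1, 0, 1, 0, 1, 2, 1, 2],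
  [0, 1, 0, 1, 0, 1, 2, 0, 2, 0, 1, 0, 1, 0, 1, 2, 0, 2, 0, 1, 0, 1, 0, 1, 2, 0, 2, 0, 1, 0, 1, 0, 1, 2, 0, 2, 0, 1, 0, 1, 0, 1, 2, 0, 2, 0, 1, 0, 1, 0, 1, 2, 0, 2, 0, 1, 0, 1, 0, 1, 2, 0, 2, 0, 1, 0, 1, 0, 1, 2, 0, 2, 0, 1, 0, 1, 0, 1, 2, 0, 2],
  [0, 1, 0, 1, 2, 0, 1, 0, 1, 2, 0, 1, 0, 1, 2, 0, 1, 0, 1, 2, 0, 1, 0, 1, 2, 0, 1, 0, 1, 2, 0, 1, 0, 1, 2, 0, 1, 0, 1, 2, 0, 1, 0, 1, 2]]

variable {F : Type*} [Field F] [CharP F 2] {ω : F} (hω : ω ^ 2 + ω + 1 = 0)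

theorem rep_ev (w : List ℕ) (hw : L0.lettersB 3 [w] = true) :
    (threeJ3Model ω).Rep (evalL P18.mul OutJ3.V w P18.one) (ev (OutJ3.tg hω) w) := by
  have := (threeJ3Model ω).rep_evalL OutJ3.V (OutJ3.tg hω) w
    (fun a ha => (OutJ3.tg_spec hω).1 a (L0.lettersB_spec hw w (by simp) a ha)) (threeJ3Model ω).rep_one
  rw [one_mul] at this
  exact this

include hω in
theorem lower (hU : UpperMult (J3 F ω) (Multiplicative (ZMod 3))) :
    LowerMult (J3 F ω) (Multiplicative (ZMod 3)) := by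
  obtain ⟨A, g, h0, ht, hb, -⟩ := OutJ3.pub hω
  haveI := OutJ3.finite hω
  have hx : ∀ i < 3, OutJ3.tg hω i * OutJ3.tg hω i = 1 := fun i hi => by
    have h1 := (threeJ3Model ω).rep_mul ((OutJ3.tg_spec hω).1 i hi) ((OutJ3.tg_spec hω).1 i hi)
    have h2 : (allLt 3 fun s => Nat.beq (P18.mul (OutJ3.V s) (OutJ3.V s)) P18.one) = true := by
      decide +kernel
    have h3 : (threeJ3Model ω).mul (OutJ3.V i) (OutJ3.V i) = (threeJ3Model ω).one :=
      Nat.eq_of_beq_eq_true ((allLt_iff _ _).mp h2 i hi)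
    rw [h3] at h1
    exact (threeJ3Model ω).rep_unique h1 (threeJ3Model ω).rep_one
  have hw : ∀ w : List ℕ, L0.lettersB 3 [w] = true → RAct.fixB OutJ3.T [w] OutJ3.B = true →
      ev (fun s => (QuotientGroup.mk (OutJ3.tg hω s) : J3 F ω)) w = 1 := fun w h1 h2 => by
    have ht' : A.Tab (fun s => (QuotientGroup.mk (OutJ3.tg hω s) : J3 F ω)) 3 OutJ3.T :=
      fun i hi c hc => by rw [← ht i (by omega) c hc, h0 i hi]
    exact hb.ev_eq_one ht' h1 h2 w (by simp)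
  refine lower_of_center Nat.prime_three (perfect_of_words (k := 3)
    (x := fun s => (QuotientGroup.mk (OutJ3.tg hω s) : J3 F ω))
    (fun i hi => by rw [← QuotientGroup.mk_mul, hx i hi, QuotientGroup.mk_one])
    (H9.gen_map (OutJ3.tg_spec hω).2 (QuotientGroup.mk' _) (QuotientGroup.mk'_surjective _))
    (R := R) ?_ (by decide +kernel)) hU (z := ev (OutJ3.tg hω) Z) ?_
    (ev_mem_commutator hx (by decide +kernel)) fun e => ?_
  · intro r hr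
    simp only [R, List.mem_cons, List.not_mem_nil, or_false] at hr
    rcases hr with rfl | rfl | rfl <;> exact hw _ (by decide +kernel) (by decide +kernel)
  · rw [← hw Z (by decide +kernel) (by decide +kernel)]
    exact map_ev _ (QuotientGroup.mk' _) _
  · have h1 := rep_ev hω Z (by decide +kernel)
    rw [e] at h1
    have h2 := threeJ3_code_unique hω h1 (threeJ3Model ω).rep_one
    have h3 : Nat.beq (evalL P18.mul OutJ3.V Z P18.one) P18.one = false := by decide +kernel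
    rw [h2] at h3
    exact absurd h3 (by simp [show (threeJ3Model ω).one = P18.one from rfl])

end Cfsg.Agent.L0.J3Low
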