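import Cfsg.Agent.H9.OutRu
import Cfsg.Agent.L0.Bridge9
import Cfsg.Agent.L0.CenterCover
import Cfsg.Agent.L0.TrivMult

/-! The double cover of Ru is a stem extension. -/

set_option autoImplicit false
set_option maxRecDepth 100000

namespace Cfsg.Agent.L0.RuLow

open Cfsg.Spor Cfsg.Agent.H9

def U : List ℕ := [0, 0, 0, 2, 1, 1, 1, 0, 0, 0, 2, 1, 1, 1, 0, 0, 0, 2, 1, 1, 1, 0, 0, 0, 2, 1, 1, 1, 0, 0, 0, 2, 1, 1, 1, 0, 0, 0, 2, 1, 1, 1, 0, 0, 0, 2, 1, 1, 1]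

def V : List ℕ := [0, 0, 2, 1, 1, 0, 1, 0, 0, 2, 1, 1, 0, 1, 0, 0, 2, 1, 1, 0, 1, 0, 0, 2, 1, 1, 0, 1, 0, 0, 2, 1, 1, 0, 1, 0, 0, 2, 1, 1, 0, 1, 0, 0, 2, 1, 1, 0, 1]

def R : List (List ℕ) := [[2, 2], [1, 2, 1, 2], [0, 2, 0, 2, 0, 2, 0, 2, 0, 2, 0, 2, 0, 2, 0, 2, 0, 2, 0, 2], [0, 1, 1, 0, 1, 1, 0, 1, 1, 0, 1, 1, 0, 1, 1, 0, 1, 1, 0, 1, 1], [0, 0, 0, 2, 0, 0, 0, 2, 0, 0, 0, 2, 0, 0, 0, 2, 0, 0, 0, 2, 0, 0, 0, 2, 0, 0, 0, 2, 0, 0, 0, 2, 0, 0, 0, 2, 0, 0, 0, 2, 0, 0, 0, 2, 0, 0, 0, 2, 0, 0, 0, 2, 0, 0, 0, 2, 0, 0, 0, 2], [0, 0, 1, 2, 0, 2, 0, 0, 1, 2, 0, 2, 0, 0, 1, 2, 0, 2, 0, 0, 1, 2, 0, 2, 0, 0, 1, 2, 0, 2, 0, 0, 1, 2, 0, 2, 0, 0, 1, 2, 0, 2, 0, 0, 1, 2, 0, 2, 0, 0, 1, 2, 0, 2, 0, 0, 1, 2, 0, 2, 0, 0, 1, 2, 0, 2, 0, 0, 1, 2, 0, 2, 0, 0, 1, 2, 0, 2, 0, 0, 1, 2, 0, 2, 0, 0, 1, 2, 0, 2, 0, 0, 1, 2, 0, 2, 0, 0, 1, 2, 0, 2, 0, 0, 1, 2, 0,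 2, 0, 0, 1, 2, 0, 2, 0, 0, 1, 2, 0, 2, 0, 0, 1, 2, 0, 2, 0, 0, 1, 2, 0, 2, 0, 0, 1, 2, 0, 2, 0, 0, 1, 2, 0, 2, 0, 0, 1, 2, 0, 2, 0, 0, 1, 2, 0, 2, 0, 0, 1, 2, 0, 2, 0, 0, 1, 2, 0, 2, 0, 0, 1, 2, 0, 2]]

def Ls : List (List (ℤ × ℕ)) := [[(1, 0), (-21, 1), (7, 2), (3, 3), (-2, 4)], [(333, 0), (-217, 1), (-29, 2), (29, 3), (1, 5)], [(-7, 0), (35, 1), (-10, 2), (-5, 3), (3, 4)]]

theorem sem_evalL {g : ℕ → fourRu} (hg : ∀ s < 3, Ru.LRep (OutRu.as s) (g s)) (w : List ℕ)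
    (hw : ∀ s ∈ w, s < 3) {X : ℕ} (hX : Ru.P5.Valid X) :
    Ru.P5.Valid (evalL Ru.P5.mul OutRu.as w X) ∧
      Ru.sem (evalL Ru.P5.mul OutRu.as w X) = Ru.sem X ∘ (ev g w).1 := by
  induction w generalizing X with
  | nil => exact ⟨hX, rfl⟩
  | cons a w ih =>
    have ha := hg a (hw a (by simp))
    have e : evalL Ru.P5.mul OutRu.as (a :: w) X =
      evalL Ru.P5.mul OutRu.as w (Ru.P5.mul X (OutRu.as a)) := rfl
    obtain ⟨h1, h2⟩ := ih (fun s hs => hw s (by simp [hs])) (PM.valid_mul Ru.P5_ok hX ha.1)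
    rw [e]
    refine ⟨h1, ?_⟩
    rw [h2, Ru.sem_mul ha hX, ev_cons]
    rfl

theorem lower (hU : UpperMult Ru (Multiplicative (ZMod 2))) :
    LowerMult Ru (Multiplicative (ZMod 2)) := by
  obtain ⟨A, g, g0, h, h0⟩ := OutRu.exists_ok
  haveI := RuB.finite_card.1
  have hb := ofRA_base h.base
  have ht := ofRA_tab h.tab
  have hw : ∀ w : List ℕ, L0.lettersB 3 [w] = true → RAct.fixB OutRu.T [w] OutRu.B = true →
      (QuotientGroup.mk (ev g0 w) : Ru) = 1 := fun w h1 h2 => by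
    have ht' : (ofRA A).Tab (fun s => (QuotientGroup.mk (g0 s) : Ru)) 3 OutRu.T :=
      fun i hi c hc => by rw [← ht i (by omega) c hc, (h0 i hi).1]
    rw [← hb.ev_eq_one ht' h1 h2 w (by simp)]
    exact map_ev _ (QuotientGroup.mk' _) _
  have hp : commutator Ru = ⊤ := by
    have ht' : (ofRA A).Tab (fun s => g (18 + s)) 3 (fun c s => OutRu.T c (18 + s)) :=
      fun i hi c hc => ht _ (by omega) c hc
    have h1 := hb.ev_eq_one ht' (S := R) (by decide +kernel) (by decide +kernel)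
    have h2 : ∀ i < 3, g (18 + i) ∈ commutator Ru := fun i hi => by
      rw [← Abelianization.ker_of, MonoidHom.mem_ker]
      refine eq_one_of_unitExp (fun i => Abelianization.of (g (18 + i))) (k := 3) (R := R)
        (by decide +kernel) (fun r hr => by rw [← map_ev, h1 r hr, map_one]) hi
        (L := Ls.getD i []) (by revert i; decide +kernel)
    rw [eq_top_iff, ← h.gen, Subgroup.closure_le]
    rintro _ (rfl | rfl | rfl)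
    exacts [h2 0 (by norm_num), h2 1 (by norm_num), h2 2 (by norm_num)]
  refine lower_of_center Nat.prime_two hp hU (z := ev g0 U * (ev g0 V)⁻¹) ?_ ?_ fun e => ?_
  · rw [QuotientGroup.mk_mul, QuotientGroup.mk_inv, hw U (by decide +kernel) (by decide +kernel),
      hw V (by decide +kernel) (by decide +kernel), inv_one, one_mul]
  · rw [← Abelianization.ker_of, MonoidHom.mem_ker, map_mul, map_inv, map_ev, map_ev, mul_inv_eq_one]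
    exact ((show U.Perm V by decide +kernel).map _).prod_eq
  · have hX : Ru.P5.Valid (OutRu.as 0) := (h0 0 (by norm_num)).2.1
    obtain ⟨a1, a2⟩ := sem_evalL (fun s hs => (h0 s hs).2) U (by decide +kernel) hX
    obtain ⟨b1, b2⟩ := sem_evalL (fun s hs => (h0 s hs).2) V (by decide +kernel) hX
    rw [mul_inv_eq_one.mp e, ← b2] at a2
    have h3 : Nat.beq (evalL Ru.P5.mul OutRu.as U (OutRu.as 0))
      (evalL Ru.P5.mul OutRu.as V (OutRu.as 0)) = false := by decide +kernel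
    rw [Ru.sem_inj a1 b1 a2] at h3
    simp at h3

end Cfsg.Agent.L0.RuLow
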